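import Cfsg.Agent.Lib.CosetCert.D.HeN.St0.Ok
import Cfsg.Agent.Lib.CosetCert.D.HeN.St1.Ok
import Cfsg.Agent.Lib.CosetCert.D.HeN.St2.Ok
import Cfsg.Agent.Lib.CosetCert.D.HeN.St3.Ok
import Cfsg.Agent.Lib.CosetCert.D.HeN.St4.Ok

namespace Cfsg.Agent.Lib.CosetCert.D.HeN.Bound

open Cfsg.Agent.Lib.CosetCert Cfsg.Agent.Lib.TC.Core Cfsg.Agent.Lib.TC.Enc Cfsg.Agent.Lib.TC.Pres Cfsg.Agent.Lib.TC.Perm Cfsg.Agent.Lib.TC.Main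

set_option maxRecDepth 100000

open Cfsg.Agent.Lib.CosetCert.D.HeN.Tbl Cfsg.Agent.Lib.TC.Chain

/-- The bound for the order, in any group. -/
theorem bound {Δ : Type*} [Group Δ] (E : ℕ → Δ) (hinv : ∀ c ∈ Cfsg.Agent.Lib.CosetCert.D.HeN.Rels.ls0, E (inv0 c) = (E c)⁻¹)
    (hrel : ∀ l ∈ Cfsg.Agent.Lib.CosetCert.D.HeN.Rels.rels, prodA E l = 1) :
    Nat.card (Lt E Cfsg.Agent.Lib.CosetCert.D.HeN.Rels.ls0) ≠ 0 ∧ Nat.card (Lt E Cfsg.Agent.Lib.CosetCert.D.HeN.Rels.ls0) ≤ 979200 := by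
  have b0 := bound_nil E
  have b1 := bound_up (Cfsg.Agent.Lib.CosetCert.D.HeN.St4.Ok.stage E hinv hrel) b0
  have b2 := bound_up (Cfsg.Agent.Lib.CosetCert.D.HeN.St3.Ok.stage E hinv hrel) b1
  have b3 := bound_up (Cfsg.Agent.Lib.CosetCert.D.HeN.St2.Ok.stage E hinv hrel) b2
  have b4 := bound_up (Cfsg.Agent.Lib.CosetCert.D.HeN.St1.Ok.stage E hinv hrel) b3
  have b5 := bound_up (Cfsg.Agent.Lib.CosetCert.D.HeN.St0.Ok.stage E hinv hrel) b4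
  exact ⟨b5.1, le_trans b5.2 (by norm_num)⟩

end Cfsg.Agent.Lib.CosetCert.D.HeN.Bound
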