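import Mathlib.Tactic
import Cfsg.Agent.Lib.CosetCert.Chain2
import Cfsg.Agent.Lib.CosetCert.D.HeN.Lv0.Ok
import Cfsg.Agent.Lib.CosetCert.D.HeN.Lv1.Ok
import Cfsg.Agent.Lib.CosetCert.D.HeN.Lv2.Ok
import Cfsg.Agent.Lib.CosetCert.D.HeN.Lv3.Ok

namespace Cfsg.Agent.Lib.CosetCert.D.HeN.Final

open Cfsg.Agent.Lib.CosetCert Cfsg.Agent.Lib.TC.Core Cfsg.Agent.Lib.TC.Enc Cfsg.Agent.Lib.TC.Pres Cfsg.Agent.Lib.TC.Perm Cfsg.Agent.Lib.TC.Main

set_option maxRecDepth 100000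

open Cfsg.Agent.Lib.CosetCert.D.HeN.Tbl

/-- The label of an index. -/
noncomputable def lab : ℕ → ℕ := cell 2 3 (nat_lit 0x9a966a55a66a5aa5a6956a6a969556aa5aa956a96a665565aaa59aaa556a9aa6a554)

/-- The representatives. -/
def rep (i : ℕ) : ℕ := [0,1,6].getD i 0

/-- The parent in the forest. -/
noncomputable def fp : ℕ → ℕ := cell 8 255 (nat_lit 0x6d334306060e0e2a8685855c092f09318483562a552a0b0a68684c4b41423f0e2222020f0f2f311717545325337172703c1e3e0c1f4f4d512f52310b0a6463252928272667676665212d2e1f1d1953605f1a19185f58045a035f60525112373864636444450f5b2d762e77393a4b714801617a504e831f1d06057677838417111000030101790000)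

/-- The letter in the forest. -/
noncomputable def fl : ℕ → ℕ := cell 2 3 (nat_lit 0xd7ad38eb032be0e9b6fb9500eab9138000802c1000a7540b5ac7aee96ae54e52cba0)

/-- The depth in the forest. -/
noncomputable def fd : ℕ → ℕ := cell 3 7 (nat_lit 0xb29324bb56db4b4d1bb64b7c6ea4da56c92cb6c92575b6dcb64926d2496b76e7554ddae46ddaac71ed25326ca42db495a11300)

/-- The words to the representatives. -/
def tw (i : ℕ) : List ℕ := [[],[2],[2,3]].getD i []

/-- The witness indices. -/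
def cw (i j : ℕ) : ℕ := ([[0,0,0],[0,0,2],[0,10,0]].getD i []).getD j 0

/-- The depths of the connections. -/
def cd (i j : ℕ) : ℕ := ([[0,0,0],[0,1,2],[0,2,1]].getD i []).getD j 0

theorem hforestR : allR (guard 136 (forestOK' F1 4 136 Cfsg.Agent.Lib.CosetCert.D.HeN.Lv0.Ok.pt lab rep fp fl fd)) 8 0 = true := by decide +kernel

theorem hlabR : allR (guard 136 (fun c => Nat.blt (lab c) 3)) 8 0 = true := by decide +kernel

theorem hptR : allR (guard 136 (fun c => Nat.blt (Cfsg.Agent.Lib.CosetCert.D.HeN.Lv0.Ok.pt c) 136)) 8 0 = true := by decide +kernel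

theorem htwK : twOK F0 6 0 (fun i => Cfsg.Agent.Lib.CosetCert.D.HeN.Lv0.Ok.pt (rep i)) tw 3 = true := by decide +kernel

theorem hconnK : connOK' F0 136 Cfsg.Agent.Lib.CosetCert.D.HeN.Lv0.Ok.pt Cfsg.Agent.Lib.CosetCert.D.HeN.Lv0.Ok.ptInv lab tw cw cd 3 = true := by decide +kernel

theorem hmax (K : Subgroup (Equiv.Perm (Fin 136))) (hSK : L1.G ≤ K) (hKG : K ≤ L0.G) (hne : K ≠ L1.G) : K = L0.G :=
  maximal_of_forest' L0 L1 Cfsg.Agent.Lib.CosetCert.D.HeN.Lv0.Ok.result (ptInv := Cfsg.Agent.Lib.CosetCert.D.HeN.Lv0.Ok.ptInv) (fun c hc => (orbOK_spec (all_of_allR (by decide) Cfsg.Agent.Lib.CosetCert.D.HeN.Lv0.Ok.horb c hc)).1)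
    (all_of_allR (by decide) hforestR) (fun c hc => Nat.le_of_ble_eq_true (all_of_allR (by decide) hptR c hc))
    (nl := 3) (fun c hc => Nat.le_of_ble_eq_true (all_of_allR (by decide) hlabR c hc)) (by decide +kernel) Cfsg.Agent.Lib.CosetCert.D.HeN.Lv0.Ok.h0pt tw (twOK_spec htwK) cw cd (connOK'_spec hconnK) K hSK hKG hne

theorem card4 : Nat.card L4.G = 1 := L4.card_G_of_k_eq_zero rfl

theorem card3 : Nat.card L3.G = 4 := by
  have h := Cfsg.Agent.Lib.CosetCert.D.HeN.Lv3.Ok.result.card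
  rw [card4] at h
  omega

theorem card2 : Nat.card L2.G = 96 := by
  have h := Cfsg.Agent.Lib.CosetCert.D.HeN.Lv2.Ok.result.card
  rw [card3] at h
  omega

theorem card1 : Nat.card L1.G = 7200 := by
  have h := Cfsg.Agent.Lib.CosetCert.D.HeN.Lv1.Ok.result.card
  rw [card2] at h
  omega

theorem card0 : Nat.card L0.G = 979200 := by
  have h := Cfsg.Agent.Lib.CosetCert.D.HeN.Lv0.Ok.result.card
  rw [card1] at h
  omega

theorem hfaith : ∀ g ∈ L0.G, (∀ h ∈ L0.G, g (h Cfsg.Agent.Lib.CosetCert.D.HeN.Lv0.Ok.p) = h Cfsg.Agent.Lib.CosetCert.D.HeN.Lv0.Ok.p) → g = 1 := by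
  intro g hg hfix
  have g1 : g ∈ L1.G := Cfsg.Agent.Lib.CosetCert.D.HeN.Lv0.Ok.result.stab g hg (by simpa using hfix 1 (Subgroup.one_mem _))
  obtain ⟨h1, hm1, he1⟩ := Cfsg.Agent.Lib.CosetCert.D.HeN.Lv0.Ok.result.orbit 6 (by decide)
  have e1 : h1 Cfsg.Agent.Lib.CosetCert.D.HeN.Lv0.Ok.p = Cfsg.Agent.Lib.CosetCert.D.HeN.Lv1.Ok.p := Fin.ext (he1.trans (by decide +kernel))
  have g2 : g ∈ L2.G := Cfsg.Agent.Lib.CosetCert.D.HeN.Lv1.Ok.result.stab g g1 (by rw [← e1]; exact hfix h1 hm1)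
  obtain ⟨h2, hm2, he2⟩ := Cfsg.Agent.Lib.CosetCert.D.HeN.Lv0.Ok.result.orbit 25 (by decide)
  have e2 : h2 Cfsg.Agent.Lib.CosetCert.D.HeN.Lv0.Ok.p = Cfsg.Agent.Lib.CosetCert.D.HeN.Lv2.Ok.p := Fin.ext (he2.trans (by decide +kernel))
  have g3 : g ∈ L3.G := Cfsg.Agent.Lib.CosetCert.D.HeN.Lv2.Ok.result.stab g g2 (by rw [← e2]; exact hfix h2 hm2)
  obtain ⟨h3, hm3, he3⟩ := Cfsg.Agent.Lib.CosetCert.D.HeN.Lv0.Ok.result.orbit 56 (by decide)
  have e3 : h3 Cfsg.Agent.Lib.CosetCert.D.HeN.Lv0.Ok.p = Cfsg.Agent.Lib.CosetCert.D.HeN.Lv3.Ok.p := Fin.ext (he3.trans (by decide +kernel))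
  have g4 : g ∈ L4.G := Cfsg.Agent.Lib.CosetCert.D.HeN.Lv3.Ok.result.stab g g3 (by rw [← e3]; exact hfix h3 hm3)
  exact L4.eq_one_of_k_eq_zero rfl g4

theorem hrelA : ∀ l ∈ Cfsg.Agent.Lib.CosetCert.D.HeN.Lv0.Tab.rels, ev L0.val l = 1 := fun _ hl =>
  L0.ev_one_of_wordFixes Cfsg.Agent.Lib.CosetCert.D.HeN.Lv0.Ok.hrelk (all_of_allR (by decide) Cfsg.Agent.Lib.CosetCert.D.HeN.Lv0.Ok.hrelR) hl

/-- The elements of orders prime to the stabiliser. -/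
def xs : List (List ℕ × ℕ) := [([0,4,3,5,1,3,0,1],17),([1,0,3,1,4,3,5],17),([1,4,3,5,1,3,0,1],17),([2,5,1,3,1,0,1],17),([1,0,1,3,1,4],17),([3,4,3,5,1,3,0,1],17),([4,4,3,1,0],17),([0,1,3,5],17),([3,5,1,3,0,1],17)]

/-- The words of the letters. -/
def lw : List (List ℕ) := [[0,4,3,5,1,3,0,1,1,0,3,1,4,3,5],[1,4,3,5,1,3,0,1,1,0,3,1,4,3,5],[2,5,1,3,1,0,1,1,0,1,3,1,4],[3,4,3,5,1,3,0,1,1,0,3,1,4,3,5],[4,4,3,1,0,0,1,3,5],[3,5,1,3,0,1,1,0,3,1,4,3,5]]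

theorem hlwR : allR (guard 136 (fun x => wordIs F0 F0 lw x 0)) 8 0 = true := by decide +kernel

theorem hxs : ∀ x ∈ xs, (∀ z ∈ x.1, z < L0.k) ∧ (Nat.card L1.G).Coprime x.2 ∧ (ev L0.val x.1) ^ x.2 = 1 := by
  rw [card1]
  exact hxs_of L0 hrelA xs (by decide +kernel)

theorem hlet : ∀ l, l < L0.k → ∃ u ∈ xs, ∃ v ∈ xs, L0.val l = ev L0.val (u.1 ++ v.1) :=
  hlet_of L0 (lw := lw) rfl (by decide +kernel) (all_of_allR (by decide) hlwR) xs (by decide +kernel)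

theorem simple : IsSimpleGroup L0.G :=
  isSimple_of_level' L0 L1 Cfsg.Agent.Lib.CosetCert.D.HeN.Lv0.Ok.result hfaith hmax (by rw [card0]; norm_num) xs hxs hlet

end Cfsg.Agent.Lib.CosetCert.D.HeN.Final
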