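import Cfsg.Agent.Lib.CosetCert.D.HeNV.Tbl
import Cfsg.Agent.Lib.CosetCert.D.HeN.Bound
import Cfsg.Agent.Lib.CosetCert.D.HeN.Final
import Cfsg.Agent.Lib.CosetCert.Sp4
import Cfsg.Agent.Lib.CosetCert.SubIso

namespace Cfsg.Agent.Lib.CosetCert.D.HeN.Mat

open Cfsg.Agent.Lib.CosetCert Cfsg.Agent.Lib.TC.Core Cfsg.Agent.Lib.TC.Enc Cfsg.Agent.Lib.TC.Pres Cfsg.Agent.Lib.TC.Perm Cfsg.Agent.Lib.TC.Main

set_option maxRecDepth 100000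

open Cfsg.Agent.Lib.CosetCert.Sp4 Cfsg.Agent.Lib.PrimeGraph.G24Field Matrix
open Cfsg.Agent.Lib.PrimeGraph.G24Field.K4

/-- The matrices of the letters. -/
def tbl : List (List (List K4)) :=
  [[[o,o,e,o],[o,e,o,o],[e,o,o,o],[o,o,o,e]],
   [[o,o,o,e],[o,o,e,w],[w,e,o,o],[e,o,o,o]],
   [[e,v,o,w],[w,v,w,e],[o,v,e,w],[v,v,v,v]],
   [[w,v,v,w],[w,e,w,o],[v,v,w,w],[v,o,v,e]],
   [[e,e,o,e],[w,v,w,e],[o,e,e,e],[w,o,w,w]],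
   [[e,w,o,w],[e,w,e,e],[o,w,e,w],[e,o,e,v]]]

/-- The matrix of a letter. -/
def M (c : ℕ) : Matrix ι ι K4 :=
  Matrix.of fun i j => ((tbl.getD c []).getD (idx i) []).getD (idx j) K4.o

theorem hMeq : ∀ c : Fin 6, M c.1 * Matrix.J (Fin 2) K4 * (M c.1)ᵀ = Matrix.J (Fin 2) K4 := by
  decide +kernel

theorem hM : ∀ c, c < Cfsg.Agent.Lib.CosetCert.D.HeNV.Tbl.L0.k → M c ∈ Sp := by
  intro c hc
  rw [SymplecticGroup.mem_iff]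
  exact hMeq ⟨c, hc⟩

theorem hact0 : ∀ c : Fin 6, ∀ x : Fin 256, enc (M c.1 *ᵥ dec x.1) = Cfsg.Agent.Lib.CosetCert.D.HeNV.Tbl.F0 c.1 x.1 := by
  decide +kernel

/-- The letters on the vectors. -/
noncomputable abbrev LV := Cfsg.Agent.Lib.CosetCert.D.HeNV.Tbl.L0

theorem hrelVR : allR (guard 256 (wordFixes Cfsg.Agent.Lib.CosetCert.D.HeNV.Tbl.F0 Cfsg.Agent.Lib.CosetCert.D.HeN.Rels.rels)) 8 0 = true := by decide +kernel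

theorem hrelk : ∀ l ∈ Cfsg.Agent.Lib.CosetCert.D.HeN.Rels.rels, ∀ z ∈ l, z < LV.k := by decide +kernel

theorem hrelV : ∀ l ∈ Cfsg.Agent.Lib.CosetCert.D.HeN.Rels.rels, prodA LV.val l = 1 := fun _ hl => by
  rw [prodA_val]
  exact LV.ev_one_of_wordFixes hrelk (all_of_allR (by decide) hrelVR) hl

theorem hinvV : ∀ c, c < LV.k → LV.val (Cfsg.Agent.Lib.CosetCert.D.HeN.Tbl.L0.inv c) = (LV.val c)⁻¹ := by
  intro c hc
  exact LV.val_inv hc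

theorem hrelkA : ∀ l ∈ Cfsg.Agent.Lib.CosetCert.D.HeN.Rels.rels, ∀ z ∈ l, z < Cfsg.Agent.Lib.CosetCert.D.HeN.Tbl.L0.k := by decide +kernel

theorem hrelAR : allR (guard 136 (wordFixes Cfsg.Agent.Lib.CosetCert.D.HeN.Tbl.F0 Cfsg.Agent.Lib.CosetCert.D.HeN.Rels.rels)) 8 0 = true := by decide +kernel

theorem hrelA : ∀ l ∈ Cfsg.Agent.Lib.CosetCert.D.HeN.Rels.rels, ev Cfsg.Agent.Lib.CosetCert.D.HeN.Tbl.L0.val l = 1 := fun _ hl =>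
  Cfsg.Agent.Lib.CosetCert.D.HeN.Tbl.L0.ev_one_of_wordFixes hrelkA (all_of_allR (by decide) hrelAR) hl

theorem hls0 (c : ℕ) : c ∈ Cfsg.Agent.Lib.CosetCert.D.HeN.Rels.ls0 ↔ c < Cfsg.Agent.Lib.CosetCert.D.HeN.Tbl.L0.k := by
  constructor
  · revert c
    decide +kernel
  · intro hc
    have hc' : c < 6 := hc
    revert c
    decide +kernel

instance instSimple : IsSimpleGroup Cfsg.Agent.Lib.CosetCert.D.HeN.Tbl.L0.G := Cfsg.Agent.Lib.CosetCert.D.HeN.Final.simple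

theorem hmove : LV.val 0 ≠ 1 := by
  intro h
  have h1 := LV.val_apply (l := 0) (by decide) (⟨1, by decide⟩ : Fin 256)
  rw [h] at h1
  exact absurd h1 (by decide +kernel)

theorem hcardV : Nat.card LV.G = 979200 := by
  obtain ⟨e⟩ := closure_equiv_of_chain LV.val Cfsg.Agent.Lib.CosetCert.D.HeN.Tbl.L0 Cfsg.Agent.Lib.CosetCert.D.HeN.Rels.ls0 hls0 979200 Cfsg.Agent.Lib.CosetCert.D.HeN.Rels.rels
    (fun E h1 h2 => Cfsg.Agent.Lib.CosetCert.D.HeN.Bound.bound E h1 h2) hinvV hrelkA hrelV hrelA Cfsg.Agent.Lib.CosetCert.D.HeN.Final.card0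
    ⟨0, by decide, hmove⟩
  rw [← Cfsg.Agent.Lib.CosetCert.D.HeN.Final.card0, ← Nat.card_congr e.toEquiv, G_eq_closure]
  rfl

theorem exists_equiv_Sp : Nonempty (Cfsg.Agent.Lib.CosetCert.D.HeN.Tbl.L0.G ≃* Sp) := by
  obtain ⟨e⟩ := closure_equiv_of_chain LV.val Cfsg.Agent.Lib.CosetCert.D.HeN.Tbl.L0 Cfsg.Agent.Lib.CosetCert.D.HeN.Rels.ls0 hls0 979200 Cfsg.Agent.Lib.CosetCert.D.HeN.Rels.rels
    (fun E h1 h2 => Cfsg.Agent.Lib.CosetCert.D.HeN.Bound.bound E h1 h2) hinvV hrelkA hrelV hrelA Cfsg.Agent.Lib.CosetCert.D.HeN.Final.card0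
    ⟨0, by decide, hmove⟩
  obtain ⟨e2⟩ := Cfsg.Agent.Lib.CosetCert.Sp4.exists_equiv LV M hM (fun c hc x => hact0 ⟨c, hc⟩ x) hcardV
  have hG : LV.G = Subgroup.closure (LV.val '' {c | c < Cfsg.Agent.Lib.CosetCert.D.HeN.Tbl.L0.k}) := G_eq_closure LV
  rw [hG] at e2
  exact ⟨e.symm.trans e2⟩

end Cfsg.Agent.Lib.CosetCert.D.HeN.Mat
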